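import Cfsg.Agent.TwoFus.Basic
import Mathlib.GroupTheory.Transfer

/-! Isolated involutions: products of two conjugates, the set of inverted odd-order elements. -/

set_option autoImplicit false

namespace Cfsg.Agent.TwoFus.Iso

open Cfsg

variable {G : Type*} [Group G]

/-- `k` has odd order and is inverted by `z`. -/
def InK (z k : G) : Prop := Odd (orderOf k) ∧ z * k * z⁻¹ = k⁻¹

theorem sq_one {z : G} (hz : IsIsolatedInvolution z) : z * z = 1 := by
  rw [← sq, ← hz.1, pow_orderOf_eq_one]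

theorem inv_eq {z : G} (hz : IsIsolatedInvolution z) : z⁻¹ = z :=
  inv_eq_of_mul_eq_one_right (sq_one hz)

theorem isolated_conj {z : G} (hz : IsIsolatedInvolution z) (g : G) :
    IsIsolatedInvolution (g * z * g⁻¹) := by
  refine ⟨((MulAut.conj g).orderOf_eq z).trans hz.1, fun h hc => ?_⟩
  have hc' : Commute z (g⁻¹ * h * g * z * (g⁻¹ * h * g)⁻¹) := by
    have := hc.map (MulAut.conj g⁻¹)
    simpa [mul_assoc] using this
  have := congrArg (MulAut.conj g) (hz.2 _ hc')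
  simpa [mul_assoc] using this

theorem conj_zpow_inv {z k : G} (h : z * k * z⁻¹ = k⁻¹) (j : ℤ) :
    z * k ^ j * z⁻¹ = (k ^ j)⁻¹ := by
  rw [← conj_zpow, h, inv_zpow]

theorem conj_pow_inv {z k : G} (h : z * k * z⁻¹ = k⁻¹) (j : ℕ) :
    z * k ^ j * z⁻¹ = (k ^ j)⁻¹ := by
  rw [← conj_pow, h, inv_pow]

theorem odd_comm [Finite G] {z : G} (hz : IsIsolatedInvolution z) (g : G) :
    Odd (orderOf (z * (g * z * g⁻¹))) := by
  set t := g * z * g⁻¹ with ht
  set k := z * t with hk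
  have hzz := sq_one hz
  have htt : t * t = 1 := sq_one (isolated_conj hz g)
  have hinv : z * k * z⁻¹ = k⁻¹ := by
    rw [inv_eq hz, hk, ← mul_assoc z z t, hzz, one_mul, mul_inv_rev, inv_eq (isolated_conj hz g),
      inv_eq hz]
  have hz2 : ∀ x : G, z * (z * x) = x := fun x => by rw [← mul_assoc, hzz, one_mul]
  -- every power of `k` is `z` times a conjugate of `z`
  have hpow : ∀ j : ℕ, ∃ a : G, k ^ j = z * (a * z * a⁻¹) := by
    have hc : ∀ (i : ℕ), k ^ i * z = z * (k ^ i)⁻¹ := fun i => by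
      rw [← conj_pow_inv hinv i, inv_eq hz, mul_assoc z (k ^ i) z, hz2]
    have hc' : ∀ (i : ℕ), z * k ^ i = (k ^ i)⁻¹ * z := fun i => by
      rw [← conj_pow_inv hinv i, inv_mul_cancel_right]
    intro j
    rcases Nat.even_or_odd' j with ⟨i, rfl | rfl⟩
    · refine ⟨(k ^ i)⁻¹, ?_⟩
      calc k ^ (2 * i) = k ^ i * k ^ i := by rw [two_mul, pow_add]
        _ = z * ((k ^ i)⁻¹ * z) * k ^ i := by rw [← hc' i, hz2]
        _ = z * ((k ^ i)⁻¹ * z * (k ^ i)⁻¹⁻¹) := by rw [inv_inv]; group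
    · refine ⟨(k ^ i)⁻¹ * g, ?_⟩
      calc k ^ (2 * i + 1) = k ^ i * (z * t) * k ^ i := by
            rw [← hk, ← pow_succ, ← pow_add]; congr 1; omega
        _ = z * ((k ^ i)⁻¹ * t) * k ^ i := by
            rw [← mul_assoc (k ^ i) z t, hc i]; group

        _ = z * ((k ^ i)⁻¹ * g * z * ((k ^ i)⁻¹ * g)⁻¹) := by rw [ht]; group
  by_contra hodd
  rw [Nat.not_odd_iff_even] at hodd
  obtain ⟨m, hm⟩ := hodd
  obtain ⟨a, ha⟩ := hpow m
  have hpos := orderOf_pos k
  have hk1 : k ^ m ≠ 1 := pow_ne_one_of_lt_orderOf (by omega) (by omega)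
  have hk2 : k ^ m = (k ^ m)⁻¹ := by
    rw [eq_inv_iff_mul_eq_one, ← pow_add, ← hm, pow_orderOf_eq_one]
  have hcomm : Commute z (a * z * a⁻¹) := by
    have h' := hk2
    rw [ha, mul_inv_rev, inv_eq (isolated_conj hz a), inv_eq hz] at h'
    exact h'
  rw [hz.2 a hcomm, hzz] at ha
  exact hk1 ha

/-- The square root in the cyclic group of odd order. -/
theorem exists_sqrt {z k : G} (hk : InK z k) :
    ∃ r : G, InK z r ∧ r ^ 2 = k ∧ r ∈ Subgroup.zpowers k := by
  obtain ⟨⟨e, he⟩, hinv⟩ := hk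
  refine ⟨k ^ (e + 1), ⟨?_, conj_pow_inv hinv _⟩, ?_, Subgroup.npow_mem_zpowers k _⟩
  · exact Odd.of_dvd_nat ⟨e, he⟩ (orderOf_pow_dvd _)
  · rw [← pow_mul, show (e + 1) * 2 = orderOf k + 1 by omega, pow_succ, pow_orderOf_eq_one, one_mul]

theorem eq_of_sq_eq {k k' : G} (h1 : Odd (orderOf k)) (h2 : Odd (orderOf k')) (h : k ^ 2 = k' ^ 2) :
    k = k' := by
  obtain ⟨e, he⟩ := h1.mul h2
  have key : ∀ x : G, orderOf x ∣ orderOf k * orderOf k' → x = (x ^ 2) ^ (e + 1) := fun x hx => by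
    rw [← pow_mul, show 2 * (e + 1) = orderOf k * orderOf k' + 1 by omega, pow_succ,
      orderOf_dvd_iff_pow_eq_one.1 hx, one_mul]
  rw [key k (dvd_mul_right _ _), key k' (dvd_mul_left _ _), h]

theorem mem_centralizer_iff' {z x : G} :
    x ∈ Subgroup.centralizer ({z} : Set G) ↔ z * x = x * z := by
  simp [Subgroup.mem_centralizer_iff]

/-- `k z k⁻¹ = k² z` for `k` inverted by `z`. -/
theorem conj_eq {z k : G} (hz : IsIsolatedInvolution z) (hk : InK z k) :
    k * z * k⁻¹ = k ^ 2 * z := by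
  have h := hk.2
  rw [mul_inv_eq_iff_eq_mul] at h
  rw [sq, mul_assoc, mul_assoc]
  congr 1
  rw [← hk.2, inv_eq hz, ← mul_assoc, ← mul_assoc, sq_one hz, one_mul]

/-- Existence of the representative of `gC` inverted by `z`, inside every subgroup containing
the commutator of `g` and `z`. -/
theorem exists_rep [Finite G] {z : G} (hz : IsIsolatedInvolution z) (g : G) :
    ∃ k : G, InK z k ∧ g⁻¹ * k ∈ Subgroup.centralizer ({z} : Set G) ∧
      ∀ H : Subgroup G, g * z * g⁻¹ * z ∈ H → k ∈ H := by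
  set t := g * z * g⁻¹ with ht
  have hm : InK z (t * z) := by
    constructor
    · rw [← orderOf_inv, mul_inv_rev, inv_eq hz, inv_eq (isolated_conj hz g)]
      exact odd_comm hz g
    · rw [inv_eq hz, mul_assoc z, mul_assoc t, sq_one hz, mul_one, mul_inv_rev, inv_eq hz,
        inv_eq (isolated_conj hz g)]
  obtain ⟨r, hr, hr2, hrm⟩ := exists_sqrt hm
  refine ⟨r, hr, ?_, fun H hH => (Subgroup.zpowers_le.2 hH) hrm⟩
  have h : r * z * r⁻¹ = g * z * g⁻¹ := by
    rw [conj_eq hz hr, hr2, mul_assoc, sq_one hz, mul_one]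
  rw [mem_centralizer_iff']
  calc z * (g⁻¹ * r) = g⁻¹ * (g * z * g⁻¹) * r := by group
    _ = g⁻¹ * (r * z * r⁻¹) * r := by rw [h]
    _ = g⁻¹ * r * z := by group

theorem rep_unique {z k k' : G} (hz : IsIsolatedInvolution z) (hk : InK z k) (hk' : InK z k')
    (h : k⁻¹ * k' ∈ Subgroup.centralizer ({z} : Set G)) : k = k' := by
  rw [mem_centralizer_iff'] at h
  have e : k * z * k⁻¹ = k' * z * k'⁻¹ := by
    calc k * z * k⁻¹ = k * (z * (k⁻¹ * k')) * k'⁻¹ := by group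
      _ = k * (k⁻¹ * k' * z) * k'⁻¹ := by rw [h]
      _ = k' * z * k'⁻¹ := by group
  rw [conj_eq hz hk, conj_eq hz hk'] at e
  exact eq_of_sq_eq hk.1 hk'.1 (mul_right_cancel e)

/-- An odd-order element inverted by a conjugate of `z` and commuting with `z` is trivial. -/
theorem eq_one_of_inverted [Finite G] {z c : G} (hz : IsIsolatedInvolution z) (hc : Odd (orderOf c))
    (hcz : Commute c z) (g : G) (hinv : (g * z * g⁻¹) * c * (g * z * g⁻¹)⁻¹ = c⁻¹) : c = 1 := by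
  set t := g * z * g⁻¹ with ht
  set k := z * t with hk
  have hkc : k * c * k⁻¹ = c⁻¹ := by
    calc k * c * k⁻¹ = z * (t * c * t⁻¹) * z⁻¹ := by rw [hk]; group
      _ = z * c⁻¹ * z⁻¹ := by rw [hinv]
      _ = c⁻¹ := by rw [(hcz.inv_left).symm.eq, mul_inv_cancel_right]
  have hpow : ∀ j : ℕ, k ^ (2 * j + 1) * c * (k ^ (2 * j + 1))⁻¹ = c⁻¹ := by
    intro j
    induction j with
    | zero => simpa using hkc
    | succ j ih =>
      calc k ^ (2 * (j + 1) + 1) * c * (k ^ (2 * (j + 1) + 1))⁻¹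
          = k * (k * (k ^ (2 * j + 1) * c * (k ^ (2 * j + 1))⁻¹) * k⁻¹) * k⁻¹ := by
            rw [show 2 * (j + 1) + 1 = 1 + 1 + (2 * j + 1) by omega, pow_add, pow_add, pow_one]
            group
        _ = k * (k * c⁻¹ * k⁻¹) * k⁻¹ := by rw [ih]
        _ = k * (k * c * k⁻¹)⁻¹ * k⁻¹ := by group
        _ = c⁻¹ := by rw [hkc, inv_inv, hkc]
  obtain ⟨e, he⟩ := odd_comm hz g
  have h := hpow e
  rw [← he, ← hk, pow_orderOf_eq_one, one_mul, inv_one, mul_one] at h
  exact eq_of_sq_eq hc (by simp) (by rw [sq, one_pow, eq_inv_iff_mul_eq_one] at *; simpa using h)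

/-- Two conjugates of `z` whose product commutes with `z` are equal. -/
theorem conj_eq_of_commute [Finite G] {z : G} (hz : IsIsolatedInvolution z) (g h : G)
    (hc : Commute (g * z * g⁻¹ * (h * z * h⁻¹)) z) : g * z * g⁻¹ = h * z * h⁻¹ := by
  set s := g * z * g⁻¹ with hs
  set t := h * z * h⁻¹ with ht
  have hsz := isolated_conj hz g
  have hodd : Odd (orderOf (s * t)) := by
    have := odd_comm hsz (h * g⁻¹)
    rwa [show h * g⁻¹ * s * (h * g⁻¹)⁻¹ = t by rw [hs, ht]; group] at this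
  have hinv : s * (s * t) * s⁻¹ = (s * t)⁻¹ := by
    rw [inv_eq hsz, ← mul_assoc s s t, sq_one hsz, one_mul, mul_inv_rev, inv_eq hsz,
      inv_eq (isolated_conj hz h)]
  have h1 := eq_one_of_inverted hz hodd hc g hinv
  exact (mul_eq_one_iff_eq_inv.1 h1).trans (inv_eq (isolated_conj hz h))

/-- A conjugate of `z` attached to an inverted element. -/
theorem exists_conj_of_inK {z k : G} (hz : IsIsolatedInvolution z) (hk : InK z k) :
    ∃ r : G, k * z = r * z * r⁻¹ := by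
  obtain ⟨r, hr, hr2, -⟩ := exists_sqrt hk
  exact ⟨r, by rw [conj_eq hz hr, hr2]⟩

theorem fusion_subgroup [Finite G] {z : G} (hz : IsIsolatedInvolution z) {H : Subgroup G}
    (g : G) (hg : g * z * g⁻¹ * z ∈ H) : ∃ h ∈ H, h * z * h⁻¹ = g * z * g⁻¹ := by
  obtain ⟨k, hk, hc, hH⟩ := exists_rep hz g
  refine ⟨k, hH H hg, ?_⟩
  rw [mem_centralizer_iff'] at hc
  calc k * z * k⁻¹ = g * (g⁻¹ * k * z) * k⁻¹ := by group
    _ = g * (z * (g⁻¹ * k)) * k⁻¹ := by rw [hc]
    _ = g * z * g⁻¹ := by group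

theorem fusion_centralized [Finite G] {z : G} (hz : IsIsolatedInvolution z) {H : Subgroup G}
    (hzH : z ∈ Subgroup.normalizer (H : Set G)) {x y h : G} (hxz : Commute x z)
    (hyz : Commute y z) (hh : h ∈ H) (hconj : h * x * h⁻¹ = y) :
    ∃ c ∈ H, Commute c z ∧ c * x * c⁻¹ = y := by
  have h1 : h⁻¹ * z * h⁻¹⁻¹ * z ∈ H ⊓ Subgroup.centralizer ({x} : Set G) := by
    constructor
    · rw [inv_inv, mul_assoc, mul_assoc]
      refine H.mul_mem (H.inv_mem hh) ?_
      have := (Subgroup.mem_normalizer_iff.1 hzH h).1 hh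
      rwa [inv_eq hz, mul_assoc] at this
    · rw [inv_inv]
      refine mem_centralizer_iff'.2 ?_
      have hzy : Commute (h⁻¹ * z * h) x := by
        have := (hyz.symm).map (MulAut.conj h⁻¹)
        simpa [← hconj, mul_assoc] using this
      exact (hzy.mul_left hxz.symm).symm.eq
  obtain ⟨r, ⟨hrH, hrx⟩, hr⟩ := fusion_subgroup hz h⁻¹ h1
  rw [inv_inv] at hr
  replace hrx := mem_centralizer_iff'.1 hrx
  refine ⟨h * r, H.mul_mem hh hrH, ?_, ?_⟩
  · calc h * r * z = h * (r * z * r⁻¹) * r := by group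
      _ = h * (h⁻¹ * z * h) * r := by rw [hr]
      _ = z * (h * r) := by group
  · calc h * r * x * (h * r)⁻¹ = h * (r * x) * r⁻¹ * h⁻¹ := by group
      _ = h * (x * r) * r⁻¹ * h⁻¹ := by rw [hrx]
      _ = y := by rw [← hconj]; group

/-- A 2-subgroup containing `z` centralizes `z`. -/
theorem two_group_le_centralizer [Finite G] {z : G} (hz : IsIsolatedInvolution z) {T : Subgroup G}
    (hT : IsPGroup 2 ↥T) (hzT : z ∈ T) : T ≤ Subgroup.centralizer ({z} : Set G) := by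
  intro t ht
  have hmem : z * (t * z * t⁻¹) ∈ T := T.mul_mem hzT (T.mul_mem (T.mul_mem ht hzT) (T.inv_mem ht))
  obtain ⟨j, hj⟩ := hT ⟨_, hmem⟩
  have hd : orderOf (z * (t * z * t⁻¹)) ∣ 2 ^ j :=
    orderOf_dvd_of_pow_eq_one (by simpa using congrArg Subtype.val hj)
  have h1 : z * (t * z * t⁻¹) = 1 :=
    orderOf_eq_one_iff.1 (Nat.eq_one_of_dvd_coprimes
      ((Nat.coprime_two_left.2 (odd_comm hz t)).pow_left j) hd dvd_rfl)
  have h2 := mul_eq_one_iff_eq_inv'.1 h1
  rw [inv_eq hz, mul_inv_eq_iff_eq_mul] at h2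
  exact mem_centralizer_iff'.2 h2.symm

end Cfsg.Agent.TwoFus.Iso
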