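import Cfsg.Agent.TwoFus.Isolated

/-! Thompson order formula pieces for an isolated involution. -/

set_option autoImplicit false

namespace Cfsg.Agent.TwoFus.Iso

open Cfsg

variable {G : Type*} [Group G]

theorem inK_conj {z k d : G} (hd : Commute d z) (hk : InK z k) : InK z (d⁻¹ * k * d) := by
  refine ⟨?_, ?_⟩
  · have : orderOf (d⁻¹ * k * d) = orderOf k := by
      simpa using (MulAut.conj d⁻¹).orderOf_eq k
    rw [this]; exact hk.1
  · calc z * (d⁻¹ * k * d) * z⁻¹ = (z * d⁻¹) * k * (z * d⁻¹)⁻¹ := by group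
      _ = (d⁻¹ * z) * k * (d⁻¹ * z)⁻¹ := by rw [hd.inv_left.symm.eq]
      _ = d⁻¹ * (z * k * z⁻¹) * d := by group
      _ = d⁻¹ * k⁻¹ * d := by rw [hk.2]
      _ = (d⁻¹ * k * d)⁻¹ := by group

/-- A subgroup containing the commutators of its elements with `z` is `K × C` setwise. -/
noncomputable def splitEquiv [Finite G] {z : G} (hz : IsIsolatedInvolution z) :
    {k : G // InK z k} × ↥(Subgroup.centralizer ({z} : Set G)) ≃ G :=
  Equiv.ofBijective (fun p => p.1.1 * p.2.1) ⟨by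
    rintro ⟨⟨k, hk⟩, ⟨c, hc⟩⟩ ⟨⟨k', hk'⟩, ⟨c', hc'⟩⟩ h
    have h' : k * c = k' * c' := h
    have : k = k' := by
      refine rep_unique hz hk hk' ?_
      have e : k⁻¹ * k' = c * c'⁻¹ := by
        rw [eq_mul_inv_iff_mul_eq, mul_assoc, ← h', inv_mul_cancel_left]
      rw [e]; exact Subgroup.mul_mem _ hc (Subgroup.inv_mem _ hc')
    subst this
    simp only [mul_left_cancel h'], by
    intro g
    obtain ⟨k, hk, hc, -⟩ := exists_rep hz g
    exact ⟨⟨⟨k, hk⟩, ⟨(g⁻¹ * k)⁻¹, Subgroup.inv_mem _ hc⟩⟩, by simp⟩⟩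

theorem card_eq_split [Finite G] {z : G} (hz : IsIsolatedInvolution z) :
    Nat.card G = Nat.card ↥(Subgroup.centralizer ({z} : Set G)) * Nat.card {k : G // InK z k} := by
  rw [← Nat.card_congr (splitEquiv hz), Nat.card_prod, mul_comm]

theorem thompson_formula [Finite G] {z : G} (hz : IsIsolatedInvolution z) {s : G}
    (hs : orderOf s = 2) (hsz : Commute s z) (hne : s ≠ z) :
    Nat.card G = Nat.card ↥(Subgroup.centralizer ({z} : Set G)) *
      Nat.card {k : G // Odd (orderOf k) ∧ z * k * z⁻¹ = k⁻¹ ∧ Commute k (s * z)} *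
      Nat.card {k : G // Odd (orderOf k) ∧ z * k * z⁻¹ = k⁻¹ ∧ Commute k s} := by
  rw [mul_assoc, ← Nat.card_prod, ← Nat.card_prod]
  refine (Nat.card_congr ?_).symm
  have hss : s * s = 1 := by rw [← sq, ← hs, pow_orderOf_eq_one]
  have hzz := sq_one hz
  set C := Subgroup.centralizer ({z} : Set G) with hCdef
  set A := {k : G // Odd (orderOf k) ∧ z * k * z⁻¹ = k⁻¹ ∧ Commute k (s * z)}
  set B := {k : G // Odd (orderOf k) ∧ z * k * z⁻¹ = k⁻¹ ∧ Commute k s}
  -- `a` commuting with `sz` and inverted by `z` is inverted by `s`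
  have hA : ∀ a : G, z * a * z⁻¹ = a⁻¹ → Commute a (s * z) → s * a * s⁻¹ = a⁻¹ := by
    intro a h1 h2
    calc s * a * s⁻¹ = (s * z) * (z * a * z⁻¹) * (s * z)⁻¹ := by
          rw [mul_inv_rev, inv_eq hz]
          simp only [mul_assoc]
          simp only [← mul_assoc z z, hzz, one_mul]
      _ = (s * z) * a⁻¹ * (s * z)⁻¹ := by rw [h1]
      _ = a⁻¹ := by rw [(h2.inv_left).symm.eq, mul_inv_cancel_right]
  -- uniqueness of the pair (u, a)
  have huniq : ∀ u u' a a' : G, u * u = 1 → u' * u' = 1 → Commute u z → Commute u' z →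
      Odd (orderOf a) → Odd (orderOf a') → z * a * z⁻¹ = a⁻¹ → z * a' * z⁻¹ = a'⁻¹ →
      u * a * u⁻¹ = a⁻¹ → u' * a' * u'⁻¹ = a'⁻¹ →
      a * u * a⁻¹ = a' * u' * a'⁻¹ → u = u' ∧ a = a' := by
    intro u u' a a' hu hu' huz hu'z ha ha' hza hza' hua hua' he
    have hx : ∀ u a : G, u * a * u⁻¹ = a⁻¹ → a * u * a⁻¹ = a ^ 2 * u := fun u a h =>
      calc a * u * a⁻¹ = a * (u * a * u⁻¹)⁻¹ * u := by group
        _ = a ^ 2 * u := by rw [h, inv_inv, sq]
    have hcomm : ∀ u a : G, z * a * z⁻¹ = a⁻¹ → u * a * u⁻¹ = a⁻¹ →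
        Commute (a ^ 2)⁻¹ (z * u) := by
      intro u a h1 h2
      have : Commute a (z * u) := by
        show a * (z * u) = z * u * a
        have e : z * u * a = (z * (u * a * u⁻¹) * z⁻¹) * (z * u) := by group
        rw [e, h2, show z * a⁻¹ * z⁻¹ = (z * a * z⁻¹)⁻¹ by group, h1, inv_inv]
      exact (this.pow_left 2).inv_left
    rw [hx u a hua, hx u' a' hua'] at he
    have hzh : ∀ u a : G, z * a * z⁻¹ = a⁻¹ → z * (a ^ 2 * u) = (a ^ 2)⁻¹ * (z * u) := fun u a h => by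
      rw [← conj_pow_inv h 2, ← mul_assoc, mul_assoc _ z⁻¹, inv_mul_cancel_left]
    have hinvol : ∀ u : G, u * u = 1 → Commute u z → (z * u) ^ 2 = 1 := fun u hu huz => by
      rw [huz.symm.mul_pow, sq, sq, hzz, hu, one_mul]
    obtain ⟨e, hM⟩ := ha.mul ha'
    have hkill : ∀ (u a : G), u * u = 1 → Commute u z → z * a * z⁻¹ = a⁻¹ → u * a * u⁻¹ = a⁻¹ →
        orderOf a ∣ 2 * e + 1 → ((a ^ 2)⁻¹ * (z * u)) ^ (2 * e + 1) = z * u := by
      intro u a hu huz h1 h2 hd
      rw [(hcomm u a h1 h2).mul_pow, inv_pow, ← pow_mul, mul_comm 2, pow_mul,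
        orderOf_dvd_iff_pow_eq_one.1 hd, one_pow, inv_one, one_mul, pow_succ, pow_mul,
        hinvol u hu huz, one_pow, one_mul]
    have h3 : z * u = z * u' := by
      rw [← hkill u a hu huz hza hua (hM ▸ dvd_mul_right _ _), ← hzh u a hza, he, hzh u' a' hza',
        hkill u' a' hu' hu'z hza' hua' (hM ▸ dvd_mul_left _ _)]
    have hu_eq := mul_left_cancel h3
    subst hu_eq
    exact ⟨rfl, eq_of_sq_eq ha ha' (mul_right_cancel he)⟩
  refine Equiv.ofBijective (fun p : ↥C × A × B => p.1.1 * p.2.1.1 * p.2.2.1) ⟨?_, ?_⟩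
  · rintro ⟨⟨c, hc⟩, ⟨a, ha, haz, hasz⟩, ⟨b, hb, hbz, hbs⟩⟩ ⟨⟨c', hc'⟩, ⟨a', ha', haz', hasz'⟩, ⟨b', hb', hbz', hbs'⟩⟩ h
    have h' : c * a * b = c' * a' * b' := h
    rw [mem_centralizer_iff'] at hc hc'
    have hcz : Commute c z := (Commute.symm (hc : Commute z c))
    have hcz' : Commute c' z := (Commute.symm (hc' : Commute z c'))
    have conjd : ∀ c a : G, Commute c z → z * a * z⁻¹ = a⁻¹ → Commute a (s * z) →
        (c * s * c⁻¹) * (c * s * c⁻¹) = 1 ∧ Commute (c * s * c⁻¹) z ∧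
        z * (c * a * c⁻¹) * z⁻¹ = (c * a * c⁻¹)⁻¹ ∧
        (c * s * c⁻¹) * (c * a * c⁻¹) * (c * s * c⁻¹)⁻¹ = (c * a * c⁻¹)⁻¹ := by
      intro c a h1 h2 h3
      refine ⟨?_, (h1.mul_left hsz).mul_left h1.inv_left, ?_, ?_⟩
      · rw [show c * s * c⁻¹ * (c * s * c⁻¹) = c * (s * s) * c⁻¹ by group, hss]; group
      · calc z * (c * a * c⁻¹) * z⁻¹ = (z * c) * a * (z * c)⁻¹ := by group
          _ = (c * z) * a * (c * z)⁻¹ := by rw [h1.symm.eq]
          _ = c * (z * a * z⁻¹) * c⁻¹ := by group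
          _ = _ := by rw [h2]; group
      · calc (c * s * c⁻¹) * (c * a * c⁻¹) * (c * s * c⁻¹)⁻¹ = c * (s * a * s⁻¹) * c⁻¹ := by group
          _ = _ := by rw [hA a h2 h3]; group
    have ho : ∀ c a : G, orderOf (c * a * c⁻¹) = orderOf a := fun c a =>
      (MulAut.conj c).orderOf_eq a
    obtain ⟨q1, q2, q3, q4⟩ := conjd c a hcz haz hasz
    obtain ⟨r1, r2, r3, r4⟩ := conjd c' a' hcz' haz' hasz'
    obtain ⟨hu, hca⟩ := huniq _ _ _ _ q1 r1 q2 r2 ((ho c a).symm ▸ ha) ((ho c' a').symm ▸ ha') q3 r3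
      q4 r4 (by
        calc c * a * c⁻¹ * (c * s * c⁻¹) * (c * a * c⁻¹)⁻¹ = c * a * (b * s * b⁻¹) * (c * a)⁻¹ := by
              rw [hbs.eq, mul_inv_cancel_right]; group
          _ = (c * a * b) * s * (c * a * b)⁻¹ := by group
          _ = (c' * a' * b') * s * (c' * a' * b')⁻¹ := by rw [h']
          _ = c' * a' * (b' * s * b'⁻¹) * (c' * a')⁻¹ := by group
          _ = c' * a' * c'⁻¹ * (c' * s * c'⁻¹) * (c' * a' * c'⁻¹)⁻¹ := by
              rw [hbs'.eq, mul_inv_cancel_right]; group)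
    have hbb : c * b = c' * b' := by
      calc c * b = (c * a * c⁻¹)⁻¹ * (c * a * b) := by group
        _ = (c' * a' * c'⁻¹)⁻¹ * (c' * a' * b') := by rw [hca, h']
        _ = c' * b' := by group
    have hb1 : b = b' := by
      refine inv_injective (rep_unique hz ⟨by rwa [orderOf_inv], ?_⟩ ⟨by rwa [orderOf_inv], ?_⟩ ?_)
      · rw [show z * b⁻¹ * z⁻¹ = (z * b * z⁻¹)⁻¹ by group, hbz]
      · rw [show z * b'⁻¹ * z⁻¹ = (z * b' * z⁻¹)⁻¹ by group, hbz']
      · rw [inv_inv, show b * b'⁻¹ = c⁻¹ * c' by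
          calc b * b'⁻¹ = c⁻¹ * (c * b) * b'⁻¹ := by group
            _ = c⁻¹ * (c' * b') * b'⁻¹ := by rw [hbb]
            _ = c⁻¹ * c' := by group]
        exact Subgroup.mul_mem _ (Subgroup.inv_mem _ (mem_centralizer_iff'.2 hc))
          (mem_centralizer_iff'.2 hc')
    subst hb1
    obtain rfl := mul_right_cancel hbb
    obtain rfl := mul_left_cancel (mul_right_cancel h')
    rfl
  · intro g
    set x := g * s * g⁻¹ with hx
    have hxx : x * x = 1 := by
      rw [hx, show g * s * g⁻¹ * (g * s * g⁻¹) = g * (s * s) * g⁻¹ by group, hss]; group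
    have hxinv : x⁻¹ = x := inv_eq_of_mul_eq_one_right hxx
    set w := z * x with hw
    have hwinv : z * w * z⁻¹ = w⁻¹ := by
      rw [hw, inv_eq hz, ← mul_assoc z z x, hzz, one_mul, mul_inv_rev, hxinv, inv_eq hz]
    have hxw : x * w * x⁻¹ = w⁻¹ := by
      rw [hxinv, hw, mul_inv_rev, hxinv, inv_eq hz, mul_assoc, mul_assoc z, hxx, mul_one]
    obtain ⟨m, hn⟩ : ∃ m, orderOf w = 2 * m := by
      rcases Nat.even_or_odd (orderOf w) with h | h
      · exact h.two_dvd
      · exfalso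
        obtain ⟨r, hr⟩ := exists_conj_of_inK hz (k := w⁻¹) ⟨by rwa [orderOf_inv],
          by rw [show z * w⁻¹ * z⁻¹ = (z * w * z⁻¹)⁻¹ by group, hwinv]⟩
        rw [hw, mul_inv_rev, hxinv, inv_eq hz, mul_assoc, hzz, mul_one] at hr
        refine hne ?_
        have hs' : s = (g⁻¹ * r) * z * (g⁻¹ * r)⁻¹ := by
          calc s = g⁻¹ * x * g := by rw [hx]; group
            _ = g⁻¹ * (r * z * r⁻¹) * g := by rw [hr]
            _ = (g⁻¹ * r) * z * (g⁻¹ * r)⁻¹ := by group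
        rw [hs'] at hsz ⊢
        exact hz.2 _ hsz.symm
    have hpos := orderOf_pos w
    set v := w ^ m with hv
    have hv2 : v * v = 1 := by rw [← pow_add, ← two_mul, ← hn, pow_orderOf_eq_one]
    have hvinv : v⁻¹ = v := inv_eq_of_mul_eq_one_right hv2
    have hv1 : v ≠ 1 := pow_ne_one_of_lt_orderOf (by omega) (by omega)
    set u := z * v with hu
    have hzv : Commute z v := by
      have := conj_pow_inv hwinv m
      rw [hvinv, mul_inv_eq_iff_eq_mul] at this
      exact this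
    have hmodd : Odd m := by
      by_contra h
      rw [Nat.not_odd_iff_even] at h
      obtain ⟨j, hj⟩ := h
      have e : u = (w ^ j)⁻¹ * z * (w ^ j)⁻¹⁻¹ := by
        rw [inv_inv, ← conj_pow_inv hwinv j, inv_eq hz, hu, hv, hj, pow_add]
        simp only [mul_assoc]
        simp only [← mul_assoc z z, hzz, one_mul]
      have := hz.2 (w ^ j)⁻¹ (e ▸ (Commute.refl z).mul_right hzv)
      rw [← e, hu, mul_eq_left] at this
      exact hv1 this
    obtain ⟨e, he⟩ := hmodd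
    -- choose the even exponent
    obtain ⟨j, hj⟩ : ∃ j, 2 * (2 * j) = 2 * e ∨ 2 * (2 * j) = 2 * e + 2 * m := by
      rcases Nat.even_or_odd' e with ⟨i, hi | hi⟩
      · exact ⟨i, Or.inl (by omega)⟩
      · exact ⟨3 * i + 2, Or.inr (by omega)⟩
    set a := w ^ (2 * j) with ha
    have haodd : Odd (orderOf a) := by
      refine Odd.of_dvd_nat ⟨e, he⟩ (orderOf_dvd_of_pow_eq_one ?_)
      rw [ha, ← pow_mul, mul_right_comm, mul_comm _ j, ← hn, mul_comm, pow_mul, pow_orderOf_eq_one,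
        one_pow]
    have ha2 : a * a = w ^ (2 * e) := by
      rw [ha, ← pow_add, ← two_mul]
      rcases hj with hj | hj
      · rw [hj]
      · rw [hj, pow_add, show w ^ (2 * m) = 1 by rw [← hn, pow_orderOf_eq_one], mul_one]
    have hza : z * a * z⁻¹ = a⁻¹ := conj_pow_inv hwinv _
    have huw : Commute a (z * u) := by
      rw [hu, ← mul_assoc, hzz, one_mul]
      exact Commute.pow_pow_self w _ _
    have huw' : u * a * u⁻¹ = a⁻¹ := by
      rw [hu, show z * v * a * (z * v)⁻¹ = z * (v * a * v⁻¹) * z⁻¹ by group,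
        (Commute.pow_pow_self w m (2 * j)).eq, mul_inv_cancel_right, hza]
    have hxu : x = a * u * a⁻¹ := by
      have h1 : a * u * a⁻¹ = a * a * u := by
        calc a * u * a⁻¹ = a * (u * a * u⁻¹)⁻¹ * u := by group
          _ = a * a * u := by rw [huw', inv_inv]
      rw [h1, ha2, hu, hv, ← mul_assoc]
      have h2 : w ^ (2 * e) * z = z * (w ^ (2 * e))⁻¹ := by
        rw [← conj_pow_inv hwinv (2 * e), inv_eq hz, mul_assoc z _ z, ← mul_assoc z z, hzz, one_mul]
      rw [h2, mul_assoc, show m = 2 * e + 1 by omega, pow_succ, inv_mul_cancel_left, hw, ← mul_assoc,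
        hzz, one_mul]
    have hcu : ∃ c : G, Commute c z ∧ c * s * c⁻¹ = u := by
      obtain ⟨c, -, hc1, hc2⟩ := fusion_centralized hz (H := ⊤) (h := a⁻¹ * g) (x := s) (y := u)
        (Subgroup.mem_normalizer_iff.2 fun _ => by simp) hsz (((Commute.refl z).mul_right hzv).symm) trivial (by
          calc a⁻¹ * g * s * (a⁻¹ * g)⁻¹ = a⁻¹ * (g * s * g⁻¹) * a := by group
            _ = u := by rw [← hx, hxu]; group)
      exact ⟨c, hc1, hc2⟩
    obtain ⟨c, hcz, hcu⟩ := hcu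
    set h₀ := (c⁻¹ * a * c)⁻¹ * c⁻¹ * g with hh₀
    have hh : Commute h₀ s := by
      have : h₀ * s * h₀⁻¹ = s := by
        calc h₀ * s * h₀⁻¹ = c⁻¹ * a⁻¹ * (g * s * g⁻¹) * a * c := by rw [hh₀]; group
          _ = c⁻¹ * u * c := by rw [← hx, hxu]; group
          _ = s := by rw [← hcu]; group
      exact mul_inv_eq_iff_eq_mul.1 this
    obtain ⟨k, hk, hkc, hkH⟩ := exists_rep hz h₀⁻¹
    have hks : Commute k s := by
      have := hkH (Subgroup.centralizer ({s} : Set G)) (mem_centralizer_iff'.2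
        (((hh.inv_left.mul_left hsz.symm).mul_left hh.inv_left.inv_left).mul_left hsz.symm).symm)
      exact (mem_centralizer_iff'.1 this).symm
    rw [inv_inv, mem_centralizer_iff'] at hkc
    have hd : Commute (h₀ * k) z := (Commute.symm hkc)
    refine ⟨⟨⟨c * (h₀ * k), mem_centralizer_iff'.2 (hcz.mul_left hd).symm⟩,
      ⟨(h₀ * k)⁻¹ * (c⁻¹ * a * c) * (h₀ * k), ?_⟩, ⟨k⁻¹, ?_, ?_, hks.inv_left⟩⟩, ?_⟩
    · have k1 : InK z (c⁻¹ * a * c) := inK_conj hcz ⟨haodd, hza⟩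
      have k2 := inK_conj hd k1
      refine ⟨k2.1, k2.2, ?_⟩
      have h1 : Commute (c⁻¹ * a * c) (s * z) := by
        have e : c⁻¹ * (z * u) * c = s * z := by
          calc c⁻¹ * (z * u) * c = (c⁻¹ * z) * (c * s * c⁻¹) * c := by rw [hcu]; group
            _ = (z * c⁻¹) * (c * s * c⁻¹) * c := by rw [hcz.inv_left.eq]
            _ = z * s := by group
            _ = s * z := hsz.symm.eq
        have := huw.map (MulAut.conj c⁻¹)
        simp only [MulAut.conj_apply, inv_inv] at this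
        rwa [e] at this
      have hfix : Commute (h₀ * k) (s * z) := (hh.mul_left hks).mul_right hd
      have := h1.map (MulAut.conj (h₀ * k)⁻¹)
      simp only [MulAut.conj_apply, inv_inv] at this
      rwa [show (h₀ * k)⁻¹ * (s * z) * (h₀ * k) = s * z by
        rw [mul_assoc, ← hfix.eq, inv_mul_cancel_left]] at this
    · rw [orderOf_inv]; exact hk.1
    · rw [show z * k⁻¹ * z⁻¹ = (z * k * z⁻¹)⁻¹ by group, hk.2]
    · show c * (h₀ * k) * ((h₀ * k)⁻¹ * (c⁻¹ * a * c) * (h₀ * k)) * k⁻¹ = g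
      rw [hh₀]; group

end Cfsg.Agent.TwoFus.Iso
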