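import Cfsg.Agent.TwoFus.Basic
import Cfsg.Prelude.Def_Involutions
import Mathlib.GroupTheory.GroupAction.Quotient

/-! Strongly embedded subgroups: conjugacy of involutions, the coset count, transitivity of `D`. -/

set_option autoImplicit false

namespace Cfsg.Agent.TwoFus.SE

open Cfsg

variable {G : Type*} [Group G] [Finite G]

theorem mem_of_common_involution {H : Subgroup G} (hH : IsStronglyEmbedded H) {g t : G}
    (ht : orderOf t = 2) (htH : t ∈ H) (hg : g⁻¹ * t * g ∈ H) : g ∈ H := by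
  by_contra h
  have hodd := hH.2.2 g h
  have hmem : t ∈ H ⊓ H.map (MulAut.conj g).toMonoidHom := ⟨htH, mem_conjMap.2 hg⟩
  have hd := orderOf_dvd_natCard (⟨t, hmem⟩ : ↥(H ⊓ H.map (MulAut.conj g).toMonoidHom))
  rw [← Subgroup.orderOf_coe, ht] at hd
  exact (Nat.not_even_iff_odd.2 hodd) (even_iff_two_dvd.2 hd)

theorem centralizer_mem {H : Subgroup G} (hH : IsStronglyEmbedded H) {g t : G}
    (ht : orderOf t = 2) (htH : t ∈ H) (hg : Commute g t) : g ∈ H :=
  mem_of_common_involution hH ht htH (by rwa [mul_assoc, ← hg.eq, inv_mul_cancel_left])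

theorem mul_self_eq_one {t : G} (ht : orderOf t = 2) : t * t = 1 := by
  rw [← sq, ← ht, pow_orderOf_eq_one]

theorem exists_involution {H : Subgroup G} (hH : IsStronglyEmbedded H) :
    ∃ t : G, orderOf t = 2 ∧ t ∈ H := by
  obtain ⟨t, ht⟩ := exists_prime_orderOf_dvd_card' (G := ↥H) 2 hH.2.1.two_dvd
  exact ⟨t, by rw [Subgroup.orderOf_coe, ht], t.2⟩

theorem exists_involution_notMem {H : Subgroup G} (hH : IsStronglyEmbedded H) :
    ∃ u : G, orderOf u = 2 ∧ u ∉ H := by
  obtain ⟨t, ht, htH⟩ := exists_involution hH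
  by_contra h
  push Not at h
  refine hH.1 ((Subgroup.eq_top_iff' H).2 fun g => mem_of_common_involution hH ht htH ?_)
  refine h _ ?_
  simpa using ((MulAut.conj g⁻¹).orderOf_eq t).trans ht

/-- The product of an involution outside and one inside has odd order. -/
theorem odd_mul {H : Subgroup G} (hH : IsStronglyEmbedded H) {u s : G} (hu : orderOf u = 2)
    (huH : u ∉ H) (hs : orderOf s = 2) (hsH : s ∈ H) : Odd (orderOf (u * s)) := by
  by_contra h
  rw [Nat.not_odd_iff_even] at h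
  obtain ⟨m, hm⟩ := h
  have hpos := orderOf_pos (u * s)
  set v := (u * s) ^ m with hv
  have hv1 : v ≠ 1 := pow_ne_one_of_lt_orderOf (by omega) (by omega)
  have hv2 : v * v = 1 := by rw [← pow_add, ← hm, pow_orderOf_eq_one]
  have hvo : orderOf v = 2 := orderOf_eq_prime (by rwa [sq]) hv1
  have huu := mul_self_eq_one hu
  have hss := mul_self_eq_one hs
  have hsi : s⁻¹ = s := inv_eq_of_mul_eq_one_right hss
  have hui : u⁻¹ = u := inv_eq_of_mul_eq_one_right huu
  have hvi : v⁻¹ = v := inv_eq_of_mul_eq_one_right hv2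
  have h1 : u * v * u⁻¹ = v := by
    rw [hv, ← conj_pow, hui, ← mul_assoc u u s, huu, one_mul]
    calc (s * u) ^ m = ((u * s) ^ m)⁻¹ := by rw [← inv_pow, mul_inv_rev, hsi, hui]
      _ = (u * s) ^ m := hvi
  have h2 : s * v * s⁻¹ = v := by
    rw [hv, ← conj_pow, hsi, mul_assoc s (u * s) s, mul_assoc u s s, hss, mul_one]
    calc (s * u) ^ m = ((u * s) ^ m)⁻¹ := by rw [← inv_pow, mul_inv_rev, hsi, hui]
      _ = (u * s) ^ m := hvi
  have hvH : v ∈ H := centralizer_mem hH hs hsH (mul_inv_eq_iff_eq_mul.1 h2).symm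
  exact huH (centralizer_mem hH hvo hvH (mul_inv_eq_iff_eq_mul.1 h1))

theorem isConj_outside {H : Subgroup G} (hH : IsStronglyEmbedded H) {u s : G} (hu : orderOf u = 2)
    (huH : u ∉ H) (hs : orderOf s = 2) (hsH : s ∈ H) : IsConj s u := by
  obtain ⟨e, he⟩ := odd_mul hH hu huH hs hsH
  refine isConj_iff.2 ⟨(u * s) ^ (e + 1), ?_⟩
  have huu := mul_self_eq_one hu
  have hss := mul_self_eq_one hs
  have hconj : s * (u * s) * s⁻¹ = (u * s)⁻¹ := by
    rw [mul_inv_rev, inv_eq_of_mul_eq_one_right hss, inv_eq_of_mul_eq_one_right huu,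
      mul_assoc, mul_assoc u s s, hss, mul_one]
  calc (u * s) ^ (e + 1) * s * ((u * s) ^ (e + 1))⁻¹
      = (u * s) ^ (e + 1) * (s * ((u * s) ^ (e + 1))⁻¹ * s⁻¹) * s := by group
    _ = (u * s) ^ (e + 1) * (u * s) ^ (e + 1) * s := by
        rw [show s * ((u * s) ^ (e + 1))⁻¹ * s⁻¹ = (s * (u * s) ^ (e + 1) * s⁻¹)⁻¹ by group,
          ← conj_pow, hconj, inv_pow, inv_inv]
    _ = u := by
        rw [← pow_add, show e + 1 + (e + 1) = orderOf (u * s) + 1 by omega, pow_succ,
          pow_orderOf_eq_one, one_mul, mul_assoc, hss, mul_one]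

theorem isConj_all {H : Subgroup G} (hH : IsStronglyEmbedded H) {a b : G} (ha : orderOf a = 2)
    (hb : orderOf b = 2) : IsConj a b := by
  obtain ⟨u, hu, huH⟩ := exists_involution_notMem hH
  obtain ⟨s, hs, hsH⟩ := exists_involution hH
  have key : ∀ a : G, orderOf a = 2 → IsConj a u := by
    intro a ha
    by_cases h : a ∈ H
    · exact isConj_outside hH hu huH ha h
    · exact (isConj_outside hH ha h hs hsH).symm.trans (isConj_outside hH hu huH hs hsH)
  exact (key a ha).trans (key b hb).symm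

/-- Involutions of `G` are pairs (point, involution of `H`). -/
theorem card_involutions {H : Subgroup G} (hH : IsStronglyEmbedded H) :
    Nat.card {i : G // orderOf i = 2} = H.index * Nat.card {t : G // orderOf t = 2 ∧ t ∈ H} := by
  rw [Subgroup.index, ← Nat.card_prod]
  refine (Nat.card_eq_of_bijective (fun p : (G ⧸ H) × {t : G // orderOf t = 2 ∧ t ∈ H} =>
    (⟨p.1.out * p.2.1 * p.1.out⁻¹, ((MulAut.conj p.1.out).orderOf_eq p.2.1).trans p.2.2.1⟩ :
      {i : G // orderOf i = 2})) ⟨?_, ?_⟩).symm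
  · rintro ⟨q, t, ht, htH⟩ ⟨q', t', ht', htH'⟩ h
    have h' : q.out * t * q.out⁻¹ = q'.out * t' * q'.out⁻¹ := congrArg Subtype.val h
    have hq : q = q' := by
      rw [← QuotientGroup.out_eq' q, ← QuotientGroup.out_eq' q', QuotientGroup.eq]
      refine mem_of_common_involution hH ht htH ?_
      have e : (q.out⁻¹ * q'.out)⁻¹ * t * (q.out⁻¹ * q'.out) = t' := by
        calc (q.out⁻¹ * q'.out)⁻¹ * t * (q.out⁻¹ * q'.out)
            = q'.out⁻¹ * (q.out * t * q.out⁻¹) * q'.out := by group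
          _ = t' := by rw [h']; group
      rw [e]; exact htH'
    subst hq
    simp only [mul_left_inj, mul_right_inj] at h'
    subst h'; rfl
  · rintro ⟨i, hi⟩
    obtain ⟨s, hs, hsH⟩ := exists_involution hH
    obtain ⟨g, hg⟩ := isConj_iff.1 (isConj_all hH hs hi)
    obtain ⟨⟨k, hk⟩, hkq⟩ := QuotientGroup.mk_out_eq_mul H g
    refine ⟨⟨(g : G ⧸ H), ⟨k⁻¹ * s * k, ?_, H.mul_mem (H.mul_mem (H.inv_mem hk) hsH) hk⟩⟩, ?_⟩
    · simpa using ((MulAut.conj k⁻¹).orderOf_eq s).trans hs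
    · refine Subtype.ext ?_
      show (QuotientGroup.mk g : G ⧸ H).out * (k⁻¹ * s * k) * (QuotientGroup.mk g : G ⧸ H).out⁻¹ = i
      rw [hkq, ← hg]; group

/-- The map from involutions of a coset outside `H` to involutions of `H`. -/
theorem coset_injective {H : Subgroup G} (hH : IsStronglyEmbedded H) {s u i i' : G}
    (hs : orderOf s = 2) (hsH : s ∈ H) (hu : orderOf u = 2) (hi : orderOf i = 2) (hi' : orderOf i' = 2)
    (huH : u ∉ H) (h1 : u * i ∈ H) (h2 : u * i' ∈ H)
    (he : u * i * s * (u * i)⁻¹ = u * i' * s * (u * i')⁻¹) : i = i' := by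
  have huu := mul_self_eq_one hu
  have hii := mul_self_eq_one hi
  have hui : u⁻¹ = u := inv_eq_of_mul_eq_one_right huu
  have hiH : i ∉ H := fun h => huH (by simpa [mul_assoc, hii] using H.mul_mem h1 h)
  set e := i * i' with he'
  have heH : e ∈ H := by
    have := H.mul_mem (H.inv_mem h1) h2
    simpa [he', mul_assoc, inv_eq_of_mul_eq_one_right hii] using this
  have hes : Commute e s := by
    have e1 : e = (u * i)⁻¹ * (u * i') := by
      rw [he', mul_inv_rev, inv_eq_of_mul_eq_one_right hii]; group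
    show e * s = s * e
    rw [e1]
    calc (u * i)⁻¹ * (u * i') * s = (u * i)⁻¹ * (u * i' * s * (u * i')⁻¹) * (u * i') := by group
      _ = (u * i)⁻¹ * (u * i * s * (u * i)⁻¹) * (u * i') := by rw [he]
      _ = s * ((u * i)⁻¹ * (u * i')) := by group
  have hinv : i * e * i⁻¹ = e⁻¹ := by
    rw [he', mul_inv_rev, inv_eq_of_mul_eq_one_right hii, inv_eq_of_mul_eq_one_right (mul_self_eq_one hi'),
      ← mul_assoc, hii, one_mul]
  have hodd : Odd (orderOf e) := by
    have hmem : e ∈ H ⊓ H.map (MulAut.conj i).toMonoidHom := by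
      refine ⟨heH, mem_conjMap.2 ?_⟩
      rw [show i⁻¹ * e * i = i * e * i⁻¹ by rw [inv_eq_of_mul_eq_one_right hii], hinv]
      exact H.inv_mem heH
    have hd := orderOf_dvd_natCard (⟨e, hmem⟩ : ↥(H ⊓ H.map (MulAut.conj i).toMonoidHom))
    rw [← Subgroup.orderOf_coe] at hd
    exact Odd.of_dvd_nat (hH.2.2 i hiH) hd
  set k := i * s with hk
  have hke : k * e * k⁻¹ = e⁻¹ := by
    calc k * e * k⁻¹ = i * (s * e * s⁻¹) * i⁻¹ := by rw [hk]; group
      _ = e⁻¹ := by rw [hes.symm.eq, mul_inv_cancel_right, hinv]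
  have hpow : ∀ j : ℕ, k ^ (2 * j + 1) * e * (k ^ (2 * j + 1))⁻¹ = e⁻¹ := by
    intro j
    induction j with
    | zero => simpa using hke
    | succ j ih =>
      calc k ^ (2 * (j + 1) + 1) * e * (k ^ (2 * (j + 1) + 1))⁻¹
          = k * (k * (k ^ (2 * j + 1) * e * (k ^ (2 * j + 1))⁻¹) * k⁻¹) * k⁻¹ := by
            rw [show 2 * (j + 1) + 1 = 1 + 1 + (2 * j + 1) by omega, pow_add, pow_add, pow_one]
            group
        _ = k * (k * e⁻¹ * k⁻¹) * k⁻¹ := by rw [ih]
        _ = k * (k * e * k⁻¹)⁻¹ * k⁻¹ := by group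
        _ = e⁻¹ := by rw [hke, inv_inv, hke]
  obtain ⟨f, hf⟩ := odd_mul hH hi hiH hs hsH
  have h3 := hpow f
  rw [← hf, ← hk, pow_orderOf_eq_one, one_mul, inv_one, mul_one] at h3
  have he1 : e = 1 := by
    obtain ⟨r, hr⟩ := hodd
    have hee : e ^ 2 = 1 := by
      rw [sq]; nth_rewrite 2 [h3]; exact mul_inv_cancel e
    have := pow_orderOf_eq_one e
    rwa [hr, pow_succ, pow_mul, hee, one_pow, one_mul] at this
  rw [he'] at he1
  exact ((mul_eq_one_iff_eq_inv.1 he1).trans (inv_eq_of_mul_eq_one_right (mul_self_eq_one hi')))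

/-- involutions moving the base point to `y` -/
abbrev J (H : Subgroup G) (y : G ⧸ H) : Type _ :=
  {i : G // orderOf i = 2 ∧ (i : G ⧸ H) = y}

theorem notMem_of_mk {H : Subgroup G} {u : G} {y : G ⧸ H} (hy : y ≠ ((1 : G) : G ⧸ H))
    (h : (u : G ⧸ H) = y) : u ∉ H := fun hu => hy (by rw [← h]; exact QuotientGroup.eq.2 (by simpa using hu))

/-- The injection attached to one involution `u` of the coset. -/
noncomputable def toH {H : Subgroup G} {s u : G} (hs : orderOf s = 2) (hsH : s ∈ H)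
    (hu : orderOf u = 2) (i : J H (u : G ⧸ H)) : {t : G // orderOf t = 2 ∧ t ∈ H} :=
  ⟨u * i.1 * s * (u * i.1)⁻¹, ((MulAut.conj (u * i.1)).orderOf_eq s).trans hs, by
    have h : u⁻¹ * i.1 ∈ H := QuotientGroup.eq.1 i.2.2.symm
    rw [inv_eq_of_mul_eq_one_right (mul_self_eq_one hu)] at h
    exact H.mul_mem (H.mul_mem h hsH) (H.inv_mem h)⟩

theorem toH_injective {H : Subgroup G} (hH : IsStronglyEmbedded H) {s u : G} (hs : orderOf s = 2)
    (hsH : s ∈ H) (hu : orderOf u = 2) (huH : u ∉ H) : Function.Injective (toH (H := H) hs hsH hu) := by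
  intro i i' h
  have key : ∀ i : J H (u : G ⧸ H), u * i.1 ∈ H := fun i => by
    have h : u⁻¹ * i.1 ∈ H := QuotientGroup.eq.1 i.2.2.symm
    rwa [inv_eq_of_mul_eq_one_right (mul_self_eq_one hu)] at h
  exact Subtype.ext (coset_injective hH hs hsH hu i.2.1 i'.2.1 huH (key i) (key i')
    (congrArg Subtype.val h))

theorem card_J {H : Subgroup G} (hH : IsStronglyEmbedded H) (y : G ⧸ H) :
    Nat.card (J H y) = Nat.card {t : G // orderOf t = 2 ∧ t ∈ H} := by
  classical
  haveI : Fintype (G ⧸ H) := Fintype.ofFinite _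
  obtain ⟨s, hs, hsH⟩ := exists_involution hH
  set m := Nat.card {t : G // orderOf t = 2 ∧ t ∈ H} with hm
  have hle : ∀ y : G ⧸ H, Nat.card (J H y) ≤ m := by
    intro y
    rcases isEmpty_or_nonempty (J H y) with h | ⟨⟨u, hu, rfl⟩⟩
    · simp
    by_cases huH : u ∈ H
    · refine Nat.card_le_card_of_injective (fun i => ⟨i.1, i.2.1, ?_⟩)
        (fun i i' h => Subtype.ext (Subtype.ext_iff.1 h :))
      have h : u⁻¹ * i.1 ∈ H := QuotientGroup.eq.1 i.2.2.symm
      simpa using H.mul_mem huH h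
    · exact Nat.card_le_card_of_injective _ (toH_injective hH hs hsH hu huH)
  have hsum : ∑ y : G ⧸ H, Nat.card (J H y) = ∑ _y : G ⧸ H, m := by
    rw [Finset.sum_const, Finset.card_univ, smul_eq_mul, ← Nat.card_eq_fintype_card,
      ← Subgroup.index, ← card_involutions hH, ← Nat.card_sigma]
    refine Nat.card_congr
      { toFun := fun p => ⟨p.2.1, p.2.2.1⟩
        invFun := fun i => ⟨(i.1 : G ⧸ H), ⟨i.1, i.2, rfl⟩⟩
        left_inv := ?_
        right_inv := fun i => rfl }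
    rintro ⟨y, i, hi, rfl⟩
    rfl
  exact (Finset.sum_eq_sum_iff_of_le fun y _ => hle y).1 hsum y (Finset.mem_univ y)

theorem exists_conj_in_D {H : Subgroup G} (hH : IsStronglyEmbedded H) {u s t : G}
    (hu : orderOf u = 2) (huH : u ∉ H) (hs : orderOf s = 2) (hsH : s ∈ H) (ht : orderOf t = 2)
    (htH : t ∈ H) : ∃ d ∈ (H ⊓ H.map (MulAut.conj u).toMonoidHom), d * s * d⁻¹ = t := by
  have hbij : Function.Bijective (toH (H := H) hs hsH hu) :=
    (toH_injective hH hs hsH hu huH).bijective_of_nat_card_le (card_J hH _).ge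
  obtain ⟨⟨i, hi, hiy⟩, h⟩ := hbij.2 ⟨t, ht, htH⟩
  have h0 : u⁻¹ * i ∈ H := QuotientGroup.eq.1 hiy.symm
  have hui := inv_eq_of_mul_eq_one_right (mul_self_eq_one hu)
  rw [hui] at h0
  refine ⟨u * i, ⟨h0, mem_conjMap.2 ?_⟩, congrArg Subtype.val h⟩
  have h1 : i * u = (u * i)⁻¹ := by
    rw [mul_inv_rev, hui, inv_eq_of_mul_eq_one_right (mul_self_eq_one hi)]
  rw [show u⁻¹ * (u * i) * u = i * u by group, h1]
  exact H.inv_mem h0

end Cfsg.Agent.TwoFus.SE
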